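import Cfsg.Agent.H603.Main
import Cfsg.Agent.Characters.Values
import Cfsg.Agent.CharactersDeep.Extraspecial

/-!
# Normal subgroups from small irreducible characters
-/

set_option autoImplicit false

namespace Cfsg.Agent.H603.Final

open Cfsg Cfsg.Agent.Characters.Core Cfsg.Agent.H603.Cent Cfsg.Agent.H603.Ind
open scoped ComplexConjugate

universe u

variable {G : Type u} [Group G] {p : ℕ}

/-- The kernel of a character. -/
theorem exists_ker [Finite G] {χ : G → ℂ} (hχ : IsCharacter G χ) (H : Subgroup G)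
    (hH : ∀ y ∈ H, χ y = χ 1) (hne : ∃ g, χ g ≠ χ 1) :
    ∃ K : Subgroup G, K.Normal ∧ K ≠ ⊤ ∧ H ≤ K := by
  obtain ⟨n, ρ, rfl⟩ := hχ
  have h1 : ∀ g, ρ.character g = ρ.character 1 ↔ g ∈ ρ.ker := by
    intro g
    rw [Representation.char_one, Characters.Values.character_eq_finrank_iff, MonoidHom.mem_ker]
    rfl
  refine ⟨ρ.ker, inferInstance, ?_, fun y hy => (h1 y).1 (hH y hy)⟩
  rintro h2
  obtain ⟨g, hg⟩ := hne
  apply hg
  rw [h1, h2]
  exact Subgroup.mem_top g

/-- An irreducible character other than the principal one is not constant. -/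
theorem exists_ne_of_ne_one [Finite G] {χ : G → ℂ} (hχ : IsIrrCharacter G χ) (h1 : χ ≠ 1) :
    ∃ g, χ g ≠ χ 1 := by
  classical
  have : Fintype G := Fintype.ofFinite _
  by_contra hcon
  push Not at hcon
  have h2 : χ = χ 1 • (1 : G → ℂ) := by
    funext g
    rw [hcon g]
    simp
  have h3 := classInner_irr_ne hχ isIrr_one h1
  rw [h2, classInner_smul_left, classInner_irr_self isIrr_one, mul_one] at h3
  exact isIrr_apply_one_ne_zero hχ h3

/-- If the restriction to the centralizer of `Q` is irreducible, of degree at least two, then `Q`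
lies in a proper normal subgroup. -/
theorem exists_of_irr_restrict [Finite G] {Q : Subgroup G}
    {χ : G → ℂ} (hχ : IsIrrCharacter G χ) (hχ1 : χ 1 ≠ 1)
    (hC : IsIrrCharacter (Subgroup.centralizer (Q : Set G))
      (fun c : Subgroup.centralizer (Q : Set G) => χ c)) :
    ∃ K : Subgroup G, K.Normal ∧ K ≠ ⊤ ∧ Q ≤ K := by
  obtain ⟨n, ρ, hρ, rfl⟩ := hχ
  let σ : Representation ℂ (Subgroup.centralizer (Q : Set G)) (Fin n → ℂ) :=
    ρ.comp (Subgroup.centralizer (Q : Set G)).subtype
  have hσ : σ.IsIrreducible := isIrreducible_of_isIrrCharacter σ hC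
  let K : Subgroup G := (Subgroup.center (G ⧸ ρ.ker)).comap (QuotientGroup.mk' ρ.ker)
  have hK : ∀ g, g ∈ K ↔ ∀ k, ρ g * ρ k = ρ k * ρ g := by
    intro g
    rw [Subgroup.mem_comap, Subgroup.mem_center_iff]
    constructor
    · intro h1 k
      have h2 := h1 (QuotientGroup.mk' ρ.ker k)
      rw [← map_mul, ← map_mul, QuotientGroup.mk'_apply, QuotientGroup.mk'_apply,
        QuotientGroup.eq, MonoidHom.mem_ker] at h2
      have h3 : ρ (k * g) * ρ ((k * g)⁻¹ * (g * k)) = ρ (g * k) := by
        rw [← map_mul]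
        congr 1
        group
      rw [h2, mul_one, map_mul, map_mul] at h3
      exact h3.symm
    · intro h1 k
      obtain ⟨k, rfl⟩ := QuotientGroup.mk'_surjective ρ.ker k
      rw [← map_mul, ← map_mul, QuotientGroup.mk'_apply, QuotientGroup.mk'_apply,
        QuotientGroup.eq, MonoidHom.mem_ker, map_mul]
      rw [map_mul ρ g k, h1 k, ← map_mul, ← map_mul]
      simp
  refine ⟨K, inferInstance, ?_, ?_⟩
  · intro h1
    apply hχ1
    have h2 : Module.finrank ℂ (Fin n → ℂ) = 1 := by
      apply CharactersDeep.Extraspecial.finrank_eq_one_of_commute ρ hρ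
      intro g k
      have : g ∈ K := by rw [h1]; exact Subgroup.mem_top g
      exact (hK g).1 this k
    rw [Representation.char_one, h2, Nat.cast_one]
  · intro x hx
    rw [hK]
    intro k
    obtain ⟨c, hc⟩ := Characters.Central.exists_smul_of_comm σ hσ (ρ x) (by
      intro g
      show ρ x * ρ g = ρ g * ρ x
      rw [← map_mul, ← map_mul, Subgroup.mem_centralizer_iff.1 g.2 x hx])
    rw [hc, smul_mul_assoc, mul_smul_comm, one_mul, mul_one]

/-- The main statement for degree at least two. -/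
theorem exists_normal [Finite G] [hp : Fact p.Prime] (P : Sylow p G)
    (h : Hyp p (P : Subgroup G)) {χ : G → ℂ} (hχ : IsIrrCharacter G χ) (x : ℕ) (hx : χ 1 = x)
    (hx2 : 2 ≤ x) (hdeg : x ^ 2 + 1 < Nat.card (P : Subgroup G)) :
    ∃ K : Subgroup G, K.Normal ∧ K ≠ ⊤ ∧ (P : Subgroup G) ≤ K := by
  classical
  have : Fintype G := Fintype.ofFinite _
  obtain ⟨E, hE1, hE2⟩ := Ext.exists_ext P h
  have : Fintype (Subgroup.centralizer ((P : Subgroup G) : Set G)) := Fintype.ofFinite _
  have hχc := isIrr_isCharacter hχ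
  have hχ1 : χ 1 ≠ 1 := by
    rw [hx]
    intro h1
    have : x = 1 := by exact_mod_cast h1
    omega
  have hχ1' : χ ≠ 1 := fun h1 => hχ1 (by rw [h1]; rfl)
  by_cases hχQ : ∀ y ∈ (P : Subgroup G), χ y = χ 1
  · exact exists_ker hχc _ hχQ (exists_ne_of_ne_one hχ hχ1')
  push Not at hχQ
  by_cases hirr : IsIrrCharacter (Subgroup.centralizer ((P : Subgroup G) : Set G))
      (fun c : Subgroup.centralizer ((P : Subgroup G) : Set G) => χ c)
  · exact exists_of_irr_restrict hχ hχ1 hirr
  have hresc : ∀ {f : G → ℂ}, IsCharacter G f →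
      IsCharacter (Subgroup.centralizer ((P : Subgroup G) : Set G))
      (fun c : Subgroup.centralizer ((P : Subgroup G) : Set G) => f c) := fun hf =>
    isCharacter_comp (Subgroup.centralizer ((P : Subgroup G) : Set G)).subtype hf
  obtain ⟨N, hN⟩ := classInner_isNat (hresc hχc) (hresc hχc)
  have hN1 : N ≠ 1 := by
    intro h1
    apply hirr
    rw [isIrr_iff_classInner_self (hresc hχc), hN, h1, Nat.cast_one]
  have hN0 : N ≠ 0 := by
    intro h1
    rw [h1, Nat.cast_zero] at hN
    have h2 := congrFun (classInner_self_eq_zero hN) 1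
    exact isIrr_apply_one_ne_zero hχ h2
  -- the product
  have hΦc : IsCharacter G (fun g => χ g * conj (χ g)) :=
    isCharacter_mul hχc (isCharacter_conj hχc)
  have hΦ1 : classInner (fun g => χ g * conj (χ g)) 1 = 1 := by
    rw [← classInner_irr_self hχ]
    unfold classInner
    congr 1
    refine Finset.sum_congr rfl fun g _ => ?_
    simp
  have hΦN : classInner (1 : Subgroup.centralizer ((P : Subgroup G) : Set G) → ℂ)
      (fun c : Subgroup.centralizer ((P : Subgroup G) : Set G) => χ c * conj (χ c)) = N := by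
    rw [← hN]
    unfold classInner
    congr 1
    refine Finset.sum_congr rfl fun g _ => ?_
    simp [mul_comm]
  have hfin : Finite (IrrCharacter G) := finite_irr
  have : Fintype (IrrCharacter G) := Fintype.ofFinite _
  obtain ⟨n, hn⟩ := exists_nat_comb hΦc
  let i1 : IrrCharacter G := ⟨1, isIrr_one⟩
  have hni1 : n i1 = 1 := by
    have h1 := classInner_sum_nsmul_irr n i1
    rw [← hn] at h1
    have h2 : classInner (fun g => χ g * conj (χ g)) ((i1 : IrrCharacter G) : G → ℂ) = 1 := hΦ1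
    rw [h2] at h1
    exact_mod_cast h1.symm
  choose a ha using fun i : IrrCharacter G =>
    classInner_isNat (G := Subgroup.centralizer ((P : Subgroup G) : Set G)) isCharacter_one
      (hresc (isIrr_isCharacter i.2))
  have hai1 : a i1 = 1 := by
    have h1 := ha i1
    have h2 : classInner (1 : Subgroup.centralizer ((P : Subgroup G) : Set G) → ℂ)
      (fun c : Subgroup.centralizer ((P : Subgroup G) : Set G) => (i1 : G → ℂ) c) = 1 :=
      classInner_irr_self isIrr_one
    rw [h2] at h1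
    exact_mod_cast h1.symm
  have hsumN : N = ∑ i, n i * a i := by
    have h1 : (fun c : Subgroup.centralizer ((P : Subgroup G) : Set G) => χ c * conj (χ c)) =
        ∑ i : IrrCharacter G, (n i : ℂ) •
          fun c : Subgroup.centralizer ((P : Subgroup G) : Set G) => (i : G → ℂ) c := by
      funext c
      have h2 := congrFun hn (c : G)
      rw [Finset.sum_apply] at h2 ⊢
      rw [h2]
      refine Finset.sum_congr rfl fun i _ => ?_
      simp
    rw [h1, classInner_sum_right] at hΦN
    have h3 : ((∑ i, n i * a i : ℕ) : ℂ) = N := by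
      rw [← hΦN]
      push_cast
      refine Finset.sum_congr rfl fun i _ => ?_
      rw [classInner_smul_right, ha i, Complex.conj_natCast]
    exact_mod_cast h3.symm
  obtain ⟨i, hi1, hi⟩ : ∃ i, i ≠ i1 ∧ 0 < n i * a i := by
    by_contra hcon
    push Not at hcon
    rw [Finset.sum_eq_single i1 (fun i _ hi => Nat.le_zero.1 (hcon i hi))
      (fun h => absurd (Finset.mem_univ _) h), hni1, hai1] at hsumN
    omega
  have hni : 0 < n i := Nat.pos_of_mul_pos_right hi
  have hai : 0 < a i := Nat.pos_of_mul_pos_left hi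
  have hψ1 : (i : G → ℂ) ≠ 1 := fun h1 => hi1 (Subtype.ext h1)
  by_cases hψQ : ∀ y ∈ (P : Subgroup G), (i : G → ℂ) y = (i : G → ℂ) 1
  · exact exists_ker (isIrr_isCharacter i.2) _ hψQ (exists_ne_of_ne_one i.2 hψ1)
  push Not at hψQ
  exfalso
  let ξ : G → ℂ := (n i - 1) • (i : G → ℂ) + ∑ j ∈ Finset.univ.erase i, n j • (j : G → ℂ)
  have hξ : IsCharacter G ξ := isCharacter_add (isCharacter_nsmul _ (isIrr_isCharacter i.2))
    (isCharacter_sum _ fun j _ => isCharacter_nsmul _ (isIrr_isCharacter j.2))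
  have hsum : (fun g => χ g * conj (χ g)) = (i : G → ℂ) + ξ := by
    rw [hn, ← Finset.add_sum_erase _ _ (Finset.mem_univ i), ← add_assoc]
    congr 1
    obtain ⟨k, hk⟩ : ∃ k, n i = k + 1 := ⟨n i - 1, by omega⟩
    rw [hk, Nat.add_sub_cancel, add_smul, one_smul, add_comm]
  obtain ⟨y, hyP, hy⟩ := hχQ
  obtain ⟨z, hzP, hz⟩ := hψQ
  exact Main.core h E hE1 hE2 hχc i.2 hξ hsum x hx hdeg ⟨⟨y, hyP⟩, hy⟩ ⟨⟨z, hzP⟩, hz⟩ (a i) hai
    (ha i)

/-- The linear case. -/
theorem linear_case [Finite G] [hp : Fact p.Prime] (P : Sylow p G)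
    (h : Hyp p (P : Subgroup G)) {χ : G → ℂ} (hχ : IsIrrCharacter G χ) (hx : χ 1 = 1)
    (hχ1 : χ ≠ 1) :
    (∃ K : Subgroup G, K.Normal ∧ K ≠ ⊤ ∧ (P : Subgroup G) ≤ K) ∨
      ∃ N : Subgroup G, N.Normal ∧ N.index = Nat.card (P : Subgroup G) := by
  by_cases hχQ : ∀ y ∈ (P : Subgroup G), χ y = χ 1
  · exact Or.inl (exists_ker (isIrr_isCharacter hχ) _ hχQ (exists_ne_of_ne_one hχ hχ1))
  right
  push Not at hχQ
  obtain ⟨f, rfl⟩ := Characters.Linear.exists_hom_of_isIrrCharacter hχ hx
  let l : (P : Subgroup G) →* ℂˣ := f.comp (P : Subgroup G).subtype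
  have hl : l ≠ 1 := by
    intro h1
    obtain ⟨y, hyP, hy⟩ := hχQ
    apply hy
    have h2 := DFunLike.congr_fun h1 ⟨y, hyP⟩
    have h3 : f y = 1 := h2
    show ((f y : ℂˣ) : ℂ) = ((f 1 : ℂˣ) : ℂ)
    rw [h3, map_one]
  have hNC : Subgroup.normalizer ((P : Subgroup G) : Set G) ≤
      Subgroup.centralizer ((P : Subgroup G) : Set G) := by
    intro t ht
    by_contra hc
    apply hl
    apply h.stab (t := ⟨t, ht⟩) l hc
    ext x
    show ((f ((cjQ (P : Subgroup G) ⟨t, ht⟩ x : (P : Subgroup G)) : G) : ℂˣ) : ℂ) = _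
    rw [cjQ_coe, map_mul, map_mul, map_inv]
    show (((f t)⁻¹ * f x * f t : ℂˣ) : ℂ) = ((f x : ℂˣ) : ℂ)
    rw [mul_comm (f t)⁻¹, inv_mul_cancel_right]
  refine ⟨(MonoidHom.transferSylow P hNC).ker, inferInstance, ?_⟩
  have h1 := MonoidHom.ker_transferSylow_isComplement' P hNC
  exact h1.symm.index_eq_card

end Cfsg.Agent.H603.Final
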