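import Cfsg.Agent.H603.Ext
import Cfsg.Agent.CharactersDeep.IndFun
import Cfsg.Agent.OddOrderCharacters.VChar
import Cfsg.Agent.Characters.Linear
import Cfsg.Agent.Characters.Central

/-!
# Induction of functions on the centralizer vanishing on `p`-regular elements
-/

set_option autoImplicit false

namespace Cfsg.Agent.H603.Ind

open Cfsg Cfsg.Agent.Characters.Core Cfsg.Agent.H603.Cent
open scoped ComplexConjugate

universe u

variable {G : Type u} [Group G] {p : ℕ} {Q : Subgroup G}

/-- A function vanishing on the `p`-regular elements. -/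
def PSing (p : ℕ) {C : Type u} [Group C] (α : C → ℂ) : Prop := ∀ c : C, ¬ p ∣ orderOf c → α c = 0

theorem PSing.sub {C : Type u} [Group C] {α β : C → ℂ} (ha : PSing p α) (hb : PSing p β) :
    PSing p (α - β) := fun c hc => by rw [Pi.sub_apply, ha c hc, hb c hc, sub_zero]

section
variable [Fintype G] [hp : Fact p.Prime]

open Classical in
/-- The restriction to `C` of a function induced from `C`. -/
theorem indFun_restrict (h : Hyp p Q) {α : Subgroup.centralizer (Q : Set G) → ℂ}
    (hα : PSing p α) (c : Subgroup.centralizer (Q : Set G)) :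
    indFun (Subgroup.centralizer (Q : Set G)) α c =
      (Nat.card (Subgroup.centralizer (Q : Set G)) : ℂ)⁻¹ *
        ∑ t : Subgroup.normalizer (Q : Set G), α (cjC Q t c) := by
  rw [CharactersDeep.IndFun.indFun_def]
  congr 1
  refine (Fintype.sum_of_injective (Subtype.val : Subgroup.normalizer (Q : Set G) → G)
    Subtype.val_injective _ _ ?_ ?_).symm
  · intro t ht
    have ht' : t ∉ Subgroup.normalizer (Q : Set G) := fun h' => ht ⟨⟨t, h'⟩, rfl⟩
    by_cases hc : t⁻¹ * c * t ∈ Subgroup.centralizer (Q : Set G)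
    · rw [CharactersDeep.IndFun.extendByZero_mem _ _ hc]
      apply hα
      intro hpc
      apply ht'
      refine h.ti c.2 ?_ hc
      rw [← orderOf_conj t (c : G)]
      rwa [Subgroup.orderOf_mk] at hpc
    · exact CharactersDeep.IndFun.extendByZero_notMem _ _ hc
  · intro t
    have hc : (t : G)⁻¹ * c * t ∈ Subgroup.centralizer (Q : Set G) :=
      conj_mem_centralizer t.2 c.2
    rw [CharactersDeep.IndFun.extendByZero_mem _ _ hc]
    rfl

/-- The form `Γ`. -/
noncomputable def Gam (Q : Subgroup G) [Fintype (Subgroup.centralizer (Q : Set G))]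
    [Fintype (Subgroup.normalizer (Q : Set G))]
    (α β : Subgroup.centralizer (Q : Set G) → ℂ) : ℂ :=
  (Nat.card (Subgroup.centralizer (Q : Set G)) : ℂ)⁻¹ *
    ∑ t : Subgroup.normalizer (Q : Set G), classInner α (fun c => β (cjC Q t c))

omit [Fintype G] [hp : Fact p.Prime] in
theorem Gam_sub_left [Fintype (Subgroup.centralizer (Q : Set G))]
    [Fintype (Subgroup.normalizer (Q : Set G))]
    (α α' β : Subgroup.centralizer (Q : Set G) → ℂ) :
    Gam Q (α - α') β = Gam Q α β - Gam Q α' β := by
  unfold Gam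
  rw [← mul_sub, ← Finset.sum_sub_distrib]
  congr 1
  exact Finset.sum_congr rfl fun t _ => classInner_sub_left _ _ _

omit [Fintype G] [hp : Fact p.Prime] in
theorem Gam_sub_right [Fintype (Subgroup.centralizer (Q : Set G))]
    [Fintype (Subgroup.normalizer (Q : Set G))]
    (α β β' : Subgroup.centralizer (Q : Set G) → ℂ) :
    Gam Q α (β - β') = Gam Q α β - Gam Q α β' := by
  unfold Gam
  rw [← mul_sub, ← Finset.sum_sub_distrib]
  congr 1
  refine Finset.sum_congr rfl fun t _ => ?_
  exact classInner_sub_right α (fun c => β (cjC Q t c)) (fun c => β' (cjC Q t c))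

/-- Inner products of functions induced from `C`. -/
theorem inner_ind (h : Hyp p Q) [Fintype (Subgroup.centralizer (Q : Set G))]
    [Fintype (Subgroup.normalizer (Q : Set G))]
    {α β : Subgroup.centralizer (Q : Set G) → ℂ} (hβ : PSing p β) :
    classInner (indFun (Subgroup.centralizer (Q : Set G)) α)
      (indFun (Subgroup.centralizer (Q : Set G)) β) = Gam Q α β := by
  classical
  rw [CharactersDeep.IndFun.classInner_indFun _ _ _
    (CharactersDeep.IndFun.isClassFunction_indFun _ _)]
  have h1 : (fun c : Subgroup.centralizer (Q : Set G) =>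
      indFun (Subgroup.centralizer (Q : Set G)) β c) =
      ((Nat.card (Subgroup.centralizer (Q : Set G)) : ℂ)⁻¹) •
        ∑ t : Subgroup.normalizer (Q : Set G), fun c => β (cjC Q t c) := by
    funext c
    rw [indFun_restrict h hβ, Pi.smul_apply, Finset.sum_apply, smul_eq_mul]
    congr 1
    refine Finset.sum_congr ?_ fun _ _ => rfl
    ext x
    simp
  rw [h1, classInner_smul_right, classInner_sum_right]
  unfold Gam
  congr 1
  simp

/-- The value at one of an induced function. -/
theorem indFun_one (C : Subgroup G) (α : C → ℂ) (hα : α 1 = 0) : indFun C α 1 = 0 := by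
  rw [CharactersDeep.IndFun.indFun_def, Finset.sum_eq_zero, mul_zero]
  intro x _
  have h1 : x⁻¹ * 1 * x = ((1 : C) : G) := by simp
  rw [h1, CharactersDeep.IndFun.extendByZero_mem _ _ (1 : C).2]
  exact hα

/-- Induced generalized characters. -/
theorem gen_ind (C : Subgroup G) {α : C → ℂ} (hα : IsGeneralizedCharacter C α) :
    IsGeneralizedCharacter G (indFun C α) := by
  obtain ⟨a, b, ha, hb, rfl⟩ := hα
  exact ⟨indFun C a, indFun C b, CharactersDeep.IndFun.isCharacter_indFun _ ha,
    CharactersDeep.IndFun.isCharacter_indFun _ hb, CharactersDeep.IndFun.indFun_sub _ _ _⟩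

end

/-! ### Functions lying over a linear character of `Q` -/

/-- `η` lies over the linear character `l` of `Q`. -/
def Over (h : Hyp p Q) (η : Subgroup.centralizer (Q : Set G) → ℂ) (l : Q →* ℂˣ) : Prop :=
  ∀ (x : Q) (c : Subgroup.centralizer (Q : Set G)), η (⟨x, h.le x.2⟩ * c) = l x * η c

/-- Every irreducible character of `C` lies over some linear character of `Q`. -/
theorem exists_over (h : Hyp p Q) {η : Subgroup.centralizer (Q : Set G) → ℂ}
    (hη : IsIrrCharacter _ η) : ∃ l : Q →* ℂˣ, Over h η l := by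
  obtain ⟨n, ρ, hρ, rfl⟩ := hη
  have hcomm : ∀ x : Q, ∀ g, ρ ⟨x, h.le x.2⟩ * ρ g = ρ g * ρ ⟨x, h.le x.2⟩ := by
    intro x g
    rw [← map_mul, ← map_mul]
    congr 1
    apply Subtype.ext
    exact Subgroup.mem_centralizer_iff.1 g.2 x x.2
  choose c hc using fun x : Q =>
    Characters.Central.exists_smul_of_comm ρ hρ (ρ ⟨x, h.le x.2⟩) (hcomm x)
  have hpos := Characters.Central.finrank_pos_of_irr ρ hρ
  have hnt : Nontrivial (Fin n → ℂ) := Module.nontrivial_of_finrank_pos (R := ℂ) hpos
  have hinj : ∀ a b : ℂ, a • (1 : Module.End ℂ (Fin n → ℂ)) = b • 1 → a = b := by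
    intro a b hab
    obtain ⟨v, hv⟩ := exists_ne (0 : Fin n → ℂ)
    have h1 := LinearMap.congr_fun hab v
    exact smul_left_injective ℂ hv h1
  let cM : Q →* ℂ :=
    { toFun := c
      map_one' := by
        apply hinj
        rw [← hc 1, one_smul]
        have : (⟨((1 : Q) : G), h.le (1 : Q).2⟩ : Subgroup.centralizer (Q : Set G)) = 1 := rfl
        rw [this, map_one]
      map_mul' := by
        intro a b
        apply hinj
        rw [← hc (a * b)]
        have : (⟨((a * b : Q) : G), h.le (a * b : Q).2⟩ : Subgroup.centralizer (Q : Set G)) =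
          ⟨a, h.le a.2⟩ * ⟨b, h.le b.2⟩ := rfl
        rw [this, map_mul, hc a, hc b, smul_mul_smul_comm, one_mul] }
  refine ⟨cM.toHomUnits, fun x g => ?_⟩
  rw [MonoidHom.coe_toHomUnits]
  show LinearMap.trace ℂ _ (ρ (⟨x, h.le x.2⟩ * g)) = c x * LinearMap.trace ℂ _ (ρ g)
  rw [map_mul, hc x, smul_mul_assoc, one_mul, map_smul, smul_eq_mul]

theorem Over.unique (h : Hyp p Q) {η : Subgroup.centralizer (Q : Set G) → ℂ} {l l' : Q →* ℂˣ}
    (h1 : η 1 ≠ 0) (hl : Over h η l) (hl' : Over h η l') : l = l' := by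
  ext x
  have e1 := hl x 1
  have e2 := hl' x 1
  rw [e1] at e2
  exact mul_right_cancel₀ h1 e2

/-- Twisting by (the extension of) a linear character. -/
theorem Over.mul (h : Hyp p Q) {η : Subgroup.centralizer (Q : Set G) → ℂ} {l m : Q →* ℂˣ}
    (hl : Over h η l) (M : Subgroup.centralizer (Q : Set G) →* ℂˣ)
    (hM : ∀ x : Q, M ⟨x, h.le x.2⟩ = m x) : Over h (fun c => η c * M c) (l * m) := by
  intro x c
  show η (⟨x, h.le x.2⟩ * c) * M (⟨x, h.le x.2⟩ * c) = _
  rw [hl x c, map_mul, hM x, MonoidHom.mul_apply]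
  push_cast
  ring

theorem Over.of_hom (h : Hyp p Q) {m : Q →* ℂˣ} (M : Subgroup.centralizer (Q : Set G) →* ℂˣ)
    (hM : ∀ x : Q, M ⟨x, h.le x.2⟩ = m x) : Over h (fun c => (M c : ℂ)) m := by
  intro x c
  show ((M (⟨x, h.le x.2⟩ * c) : ℂˣ) : ℂ) = _
  rw [map_mul, hM x]
  push_cast
  ring

/-- Conjugating. -/
theorem Over.conj (h : Hyp p Q) {η : Subgroup.centralizer (Q : Set G) → ℂ} {l : Q →* ℂˣ}
    (hl : Over h η l) (t : Subgroup.normalizer (Q : Set G)) :
    Over h (fun c => η (cjC Q t c)) (l.comp (cjQ Q t)) := by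
  intro x c
  show η (cjC Q t (⟨x, h.le x.2⟩ * c)) = _
  rw [map_mul]
  exact hl (cjQ Q t x) (cjC Q t c)

theorem isIrr_mul_hom {C : Type u} [Group C] [Finite C] {η : C → ℂ} (hη : IsIrrCharacter C η)
    (M : C →* ℂˣ) : IsIrrCharacter C (fun c => η c * M c) := by
  classical
  have : Fintype C := Fintype.ofFinite _
  have hc : IsCharacter C (fun c => η c * M c) :=
    isCharacter_mul (isIrr_isCharacter hη) (Characters.Linear.isCharacter_hom M)
  rw [isIrr_iff_classInner_self hc]
  rw [← classInner_irr_self hη]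
  unfold classInner
  congr 1
  refine Finset.sum_congr rfl fun c _ => ?_
  rw [map_mul]
  have h1 : (M c : ℂ) * conj (M c : ℂ) = 1 := by
    rw [Complex.mul_conj, Complex.normSq_eq_norm_sq, Characters.Linear.norm_hom_apply]
    simp
  calc η c * (M c : ℂ) * (conj (η c) * conj (M c : ℂ)) =
        η c * conj (η c) * ((M c : ℂ) * conj (M c : ℂ)) := by ring
    _ = η c * conj (η c) := by rw [h1, mul_one]

section
variable [Finite G]

omit [Finite G] in
/-- Irreducible characters over non-conjugate linear characters are orthogonal for `Γ`. -/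
theorem Gam_eq_zero (h : Hyp p Q) [Fintype (Subgroup.centralizer (Q : Set G))]
    [Fintype (Subgroup.normalizer (Q : Set G))]
    {η η' : Subgroup.centralizer (Q : Set G) → ℂ} (hη : IsIrrCharacter _ η)
    (hη' : IsIrrCharacter _ η') {l l' : Q →* ℂˣ} (hl : Over h η l) (hl' : Over h η' l')
    (hne : ∀ t : Subgroup.normalizer (Q : Set G), l'.comp (cjQ Q t) ≠ l) : Gam Q η η' = 0 := by
  unfold Gam
  rw [Finset.sum_eq_zero, mul_zero]
  intro t _
  have h1 : IsIrrCharacter (Subgroup.centralizer (Q : Set G)) (fun c => η' (cjC Q t c)) :=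
    isIrr_comp (cjC Q t) (cjC_surjective t) hη'
  apply classInner_irr_ne hη h1
  rintro rfl
  apply hne t
  exact Over.unique h (isIrr_apply_one_ne_zero hη) (Over.conj h hl' t) hl

open Classical in
/-- Irreducible characters over the same nontrivial linear character. -/
theorem Gam_same (h : Hyp p Q) [Fintype (Subgroup.centralizer (Q : Set G))]
    [Fintype (Subgroup.normalizer (Q : Set G))]
    {η η' : Subgroup.centralizer (Q : Set G) → ℂ} (hη : IsIrrCharacter _ η)
    (hη' : IsIrrCharacter _ η') {l : Q →* ℂˣ} (hl : Over h η l) (hl' : Over h η' l)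
    (hne : l ≠ 1) : Gam Q η η' = if η = η' then 1 else 0 := by
  unfold Gam
  have hterm : ∀ t : Subgroup.normalizer (Q : Set G),
      classInner η (fun c => η' (cjC Q t c)) =
        if (t : G) ∈ Subgroup.centralizer (Q : Set G) then classInner η η' else 0 := by
    intro t
    split_ifs with ht
    · congr 1
      funext c
      have h1 := isIrr_isClassFunction hη' c (⟨t, ht⟩⁻¹ : Subgroup.centralizer (Q : Set G))
      rw [← h1]
      congr 1
      apply Subtype.ext
      rw [cjC_coe]
      simp
    · have h1 : IsIrrCharacter (Subgroup.centralizer (Q : Set G)) (fun c => η' (cjC Q t c)) :=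
        isIrr_comp (cjC Q t) (cjC_surjective t) hη'
      apply classInner_irr_ne hη h1
      rintro rfl
      apply hne
      apply h.stab l ht
      exact Over.unique h (isIrr_apply_one_ne_zero hη) (Over.conj h hl' t) hl
  simp only [hterm]
  rw [← Finset.sum_filter, Finset.sum_const, nsmul_eq_mul]
  have hcard : (Finset.univ.filter fun t : Subgroup.normalizer (Q : Set G) =>
      (t : G) ∈ Subgroup.centralizer (Q : Set G)).card =
      Nat.card (Subgroup.centralizer (Q : Set G)) := by
    rw [← Fintype.card_subtype, ← Nat.card_eq_fintype_card]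
    refine Nat.card_congr ⟨fun t => ⟨t.1.1, t.2⟩, fun c =>
      ⟨⟨c.1, Subgroup.centralizer_le_normalizer _ c.2⟩, c.2⟩, fun t => rfl, fun c => rfl⟩
  rw [hcard, inv_mul_cancel_left₀ (by exact_mod_cast Nat.card_pos.ne')]
  exact classInner_irr hη hη'

omit [Finite G] in
/-- `Γ(1, 1) = |N : C|`. -/
theorem Gam_one [Fintype (Subgroup.centralizer (Q : Set G))]
    [Fintype (Subgroup.normalizer (Q : Set G))] :
    Gam Q (1 : Subgroup.centralizer (Q : Set G) → ℂ) 1 =
      (Nat.card (Subgroup.centralizer (Q : Set G)) : ℂ)⁻¹ *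
        (Nat.card (Subgroup.normalizer (Q : Set G)) : ℂ) := by
  unfold Gam
  have h1 : ∀ t : Subgroup.normalizer (Q : Set G),
      classInner (1 : Subgroup.centralizer (Q : Set G) → ℂ)
        (fun c => (1 : Subgroup.centralizer (Q : Set G) → ℂ) (cjC Q t c)) = 1 := fun t =>
    classInner_irr_self isIrr_one
  simp only [h1]
  simp [Nat.card_eq_fintype_card]

end

end Cfsg.Agent.H603.Ind
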