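import Cfsg.Agent.H603.Orb
import Cfsg.Agent.H603.Comb

/-!
# Small irreducible characters under the uniform centralizer condition
-/

set_option autoImplicit false

namespace Cfsg.Agent.H603.Main

open Cfsg Cfsg.Agent.Characters.Core Cfsg.Agent.H603.Cent Cfsg.Agent.H603.Ind
  Cfsg.Agent.H603.Mult Cfsg.Agent.H603.Orb
open scoped ComplexConjugate

universe u

variable {G : Type u} [Group G] {p : ℕ}

attribute [local instance] act

open Classical in
/-- Counting: the index `e` of `C` in `N` is at most the degree `x`, and more than `e` nontrivial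
linear characters of `Q` are missing in `χ χ̄`. -/
theorem count [Fintype G] {Q : Subgroup G} (h : Hyp p Q) [Fintype Q] [Fintype (Q →* ℂˣ)]
    {χ : G → ℂ} (hχ : IsCharacter G χ)
    (x : ℕ) (hx : χ 1 = x) (hdeg : x ^ 2 + 1 < Nat.card Q)
    (m M : (Q →* ℂˣ) → ℕ) (hm : ∀ l, mul l χ = m l)
    (hM : ∀ l, mul l (fun g => χ g * conj (χ g)) = M l)
    (l0 : Lin Q) (hl0 : 0 < m l0.1) :
    idx Q ≤ x ∧ idx Q < (Finset.univ.filter fun l : Lin Q => M l.1 = 0).card := by
  have hcl := isCharacter_isClassFunction hχ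
  -- sums
  have e1 : x = ∑ l, m l := by
    have h1 := mul_sum h χ
    rw [hx, Finset.sum_congr rfl fun l _ => hm l] at h1
    exact_mod_cast h1
  have e2 : x ^ 2 = ∑ l, M l := by
    have h1 := mul_sum h (fun g => χ g * conj (χ g))
    rw [Finset.sum_congr rfl fun l _ => hM l] at h1
    have h2 : χ 1 * conj (χ 1) = ((x ^ 2 : ℕ) : ℂ) := by
      rw [hx, Complex.conj_natCast]; push_cast; ring
    rw [h2] at h1
    exact_mod_cast h1
  have e3 : M 1 = ∑ l, m l ^ 2 := by
    have h1 := mul_norm h χ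
    rw [hM 1, Finset.sum_congr rfl fun l _ => by rw [hm l, Complex.conj_natCast]] at h1
    have h2 : (M 1 : ℂ) = ((∑ l, m l ^ 2 : ℕ) : ℂ) := by
      rw [h1]; push_cast
      exact Finset.sum_congr rfl fun l _ => by ring
    exact_mod_cast h2
  -- the orbit of `l0`
  set O := Finset.univ.filter fun l : Lin Q =>
    l ∈ MulAction.orbit (Subgroup.normalizer (Q : Set G)) l0 with hO
  have hOcard : O.card = idx Q := by
    rw [← card_orbit_eq h l0, hO, ← Fintype.card_subtype, ← Nat.card_eq_fintype_card]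
  have hOm : ∀ l ∈ O, 1 ≤ m l.1 := by
    intro l hl
    rw [hO, Finset.mem_filter] at hl
    obtain ⟨t, ht⟩ := hl.2
    have h1 : l.1 = l0.1.comp (cjQ Q t) := by
      rw [← ht]; rfl
    have h2 := mul_conj hcl t l0.1
    rw [← h1, hm, hm] at h2
    have h3 : m l.1 = m l0.1 := by exact_mod_cast h2
    omega
  have hsum1 : idx Q ≤ ∑ l : Lin Q, m l.1 := by
    calc idx Q = ∑ l ∈ O, 1 := by rw [Finset.sum_const, smul_eq_mul, mul_one, hOcard]
      _ ≤ ∑ l ∈ O, m l.1 := Finset.sum_le_sum hOm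
      _ ≤ ∑ l : Lin Q, m l.1 := Finset.sum_le_sum_of_subset (Finset.subset_univ _)
  have hsum2 : idx Q ≤ ∑ l : Lin Q, m l.1 ^ 2 := by
    calc idx Q = ∑ l ∈ O, 1 := by rw [Finset.sum_const, smul_eq_mul, mul_one, hOcard]
      _ ≤ ∑ l ∈ O, m l.1 ^ 2 := Finset.sum_le_sum fun l hl => Nat.one_le_pow _ _ (hOm l hl)
      _ ≤ ∑ l : Lin Q, m l.1 ^ 2 := Finset.sum_le_sum_of_subset (Finset.subset_univ _)
  have s1 : ∑ l, m l = m 1 + ∑ l : Lin Q, m l.1 := by
    convert Fintype.sum_eq_add_sum_subtype_ne m 1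
  have s2 : ∑ l, m l ^ 2 = m 1 ^ 2 + ∑ l : Lin Q, m l.1 ^ 2 := by
    convert Fintype.sum_eq_add_sum_subtype_ne (fun l => m l ^ 2) 1
  have s3 : ∑ l, M l = M 1 + ∑ l : Lin Q, M l.1 := by
    convert Fintype.sum_eq_add_sum_subtype_ne M 1
  refine ⟨?_, ?_⟩
  · rw [e1, s1]; omega
  · have h1 : idx Q ≤ M 1 := by
      rw [e3, s2]
      exact hsum2.trans (Nat.le_add_left _ _)
    -- the occurring characters
    have h2 : (Finset.univ.filter fun l : Lin Q => ¬ M l.1 = 0).card ≤ ∑ l : Lin Q, M l.1 := by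
      calc (Finset.univ.filter fun l : Lin Q => ¬ M l.1 = 0).card =
            ∑ l ∈ Finset.univ.filter (fun l : Lin Q => ¬ M l.1 = 0), 1 := by
            rw [Finset.sum_const, smul_eq_mul, mul_one]
        _ ≤ ∑ l ∈ Finset.univ.filter (fun l : Lin Q => ¬ M l.1 = 0), M l.1 := by
            refine Finset.sum_le_sum fun l hl => ?_
            rw [Finset.mem_filter] at hl
            omega
        _ ≤ ∑ l : Lin Q, M l.1 := Finset.sum_le_sum_of_subset (Finset.subset_univ _)
    have h3 := Finset.card_filter_add_card_filter_not (s := (Finset.univ : Finset (Lin Q)))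
      (fun l => M l.1 = 0)
    have h4 := card_lin h
    rw [Nat.card_eq_fintype_card, ← Finset.card_univ] at h4
    omega

open Classical in
/-- The contradiction. -/
theorem core [Fintype G] [hp : Fact p.Prime] {Q : Subgroup G} (h : Hyp p Q)
    (E : (Q →* ℂˣ) →* (Subgroup.centralizer (Q : Set G) →* ℂˣ))
    (hE1 : ∀ l (x : Q), E l ⟨x, h.le x.2⟩ = l x)
    (hE2 : ∀ l (c : Subgroup.centralizer (Q : Set G)), ¬ p ∣ orderOf c → E l c = 1)
    [Fintype (Subgroup.centralizer (Q : Set G))]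
    {χ ψ ξ : G → ℂ} (hχ : IsCharacter G χ) (hψ : IsIrrCharacter G ψ) (hξ : IsCharacter G ξ)
    (hsum : (fun g => χ g * conj (χ g)) = ψ + ξ)
    (x : ℕ) (hx : χ 1 = x) (hdeg : x ^ 2 + 1 < Nat.card Q)
    (hχQ : ∃ y : Q, χ y ≠ χ 1) (hψQ : ∃ y : Q, ψ y ≠ ψ 1)
    (a : ℕ) (ha : 0 < a)
    (hψ1 : classInner (1 : Subgroup.centralizer (Q : Set G) → ℂ)
        (fun c : Subgroup.centralizer (Q : Set G) => ψ c) = a) : False := by
  have hfl : Finite (Q →* ℂˣ) := finite_lin
  have : Fintype (Q →* ℂˣ) := Fintype.ofFinite _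
  have : Fintype Q := Fintype.ofFinite _
  have : Fintype (Subgroup.normalizer (Q : Set G)) := Fintype.ofFinite _
  have hψc := isIrr_isCharacter hψ
  have hΦc : IsCharacter G (fun g => χ g * conj (χ g)) :=
    isCharacter_mul hχ (isCharacter_conj hχ)
  choose m hm using fun l : Q →* ℂˣ => mul_nat l hχ
  choose M hM using fun l : Q →* ℂˣ => mul_nat l hΦc
  choose m' hm' using fun l : Q →* ℂˣ => mul_nat l hψc
  choose m'' hm'' using fun l : Q →* ℂˣ => mul_nat l hξ
  have hle : ∀ l, m' l ≤ M l := by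
    intro l
    have h1 : mul l (fun g => χ g * conj (χ g)) = mul l ψ + mul l ξ := by
      rw [hsum]
      exact classInner_add_left (fun x : Q => ψ x) (fun x : Q => ξ x) _
    rw [hM, hm', hm''] at h1
    have h2 : M l = m' l + m'' l := by exact_mod_cast h1
    omega
  -- nontrivial linear characters occurring in `χ`, `ψ`
  have hex : ∀ {f : G → ℂ} (n : (Q →* ℂˣ) → ℕ), (∀ l, mul l f = n l) →
      (∃ y : Q, f y ≠ f 1) → ∃ l : Lin Q, 0 < n l.1 := by
    intro f n hn hy
    by_contra hcon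
    push Not at hcon
    obtain ⟨y, hy⟩ := hy
    apply hy
    apply const_of_mul h
    intro l hl
    have := hcon ⟨l, hl⟩
    rw [hn l]
    have h0 : n l = 0 := by simpa using this
    rw [h0]; simp
  obtain ⟨l0, hl0⟩ := hex m hm hχQ
  obtain ⟨l3, hl3⟩ := hex m' hm' hψQ
  obtain ⟨hidx, hZ⟩ := count h hχ x hx hdeg m M hm hM l0 hl0
  set Z := Finset.univ.filter fun l : Lin Q => M l.1 = 0 with hZdef
  have hZpos : 0 < Z.card := by omega
  obtain ⟨l1, hl1⟩ := Finset.card_pos.1 hZpos
  have hO1 : (Finset.univ.filter fun l : Lin Q =>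
      l ∈ MulAction.orbit (Subgroup.normalizer (Q : Set G)) l1).card < Z.card := by
    refine lt_of_eq_of_lt ?_ hZ
    rw [← card_orbit_eq h l1, ← Fintype.card_subtype, ← Nat.card_eq_fintype_card]
  obtain ⟨l2, hl2, hl2'⟩ := Finset.exists_mem_notMem_of_card_lt_card hO1
  rw [Finset.mem_filter] at hl1 hl2 hl2'
  -- orbits
  let J := MulAction.orbitRel.Quotient (Subgroup.normalizer (Q : Set G)) (Lin Q)
  have : Fintype J := Fintype.ofFinite _
  let cl : Lin Q → J := fun l => Quotient.mk _ l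
  let r : J → Lin Q := fun j => Quotient.out j
  have hclr : ∀ j, cl (r j) = j := fun j => Quotient.out_eq j
  have hcl : ∀ a b : Lin Q, cl a = cl b ↔
      a ∈ MulAction.orbit (Subgroup.normalizer (Q : Set G)) b := fun a b => Quotient.eq
  have hinv : ∀ {f : G → ℂ} (n : (Q →* ℂˣ) → ℕ), IsClassFunction G f → (∀ l, mul l f = n l) →
      ∀ a b : Lin Q, cl a = cl b → n a.1 = n b.1 := by
    intro f n hf hn a b hab
    obtain ⟨t, ht⟩ := (hcl a b).1 hab
    have h1 : a.1 = b.1.comp (cjQ Q t) := by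
      rw [← ht]; rfl
    have h2 := mul_conj hf t b.1
    rw [← h1, hn, hn] at h2
    exact_mod_cast h2
  have hnc : ∀ j k : J, j ≠ k → ∀ t : Subgroup.normalizer (Q : Set G),
      (r k).1.comp (cjQ Q t) ≠ (r j).1 := by
    intro j k hjk t ht
    apply hjk
    rw [← hclr j, ← hclr k]
    exact (hcl _ _).2 ⟨t, Subtype.ext ht⟩
  set j0 := cl l3 with hj0
  set j1 := cl l1 with hj1
  set j2 := cl l2 with hj2
  have hMr1 : M (r j1).1 = 0 := by
    rw [hinv M (isCharacter_isClassFunction hΦc) hM (r j1) l1 (hclr j1)]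
    exact hl1.2
  have hMr2 : M (r j2).1 = 0 := by
    rw [hinv M (isCharacter_isClassFunction hΦc) hM (r j2) l2 (hclr j2)]
    exact hl2.2
  have hm1 : m' (r j1).1 = 0 := Nat.le_zero.1 (hMr1 ▸ hle _)
  have hm2 : m' (r j2).1 = 0 := Nat.le_zero.1 (hMr2 ▸ hle _)
  have hm0 : 0 < m' (r j0).1 := by
    rw [hinv m' (isCharacter_isClassFunction hψc) hm' (r j0) l3 (hclr j0)]
    exact hl3
  have h12 : j2 ≠ j1 := by
    intro h1
    apply hl2'
    exact ⟨Finset.mem_univ _, (hcl l2 l1).1 h1⟩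
  have h10 : j0 ≠ j1 := by
    intro h1
    rw [h1] at hm0; omega
  have h02 : j0 ≠ j2 := by
    intro h1
    rw [h1] at hm0; omega
  -- the character `η`
  have hψC : IsCharacter (Subgroup.centralizer (Q : Set G))
      (fun c : Subgroup.centralizer (Q : Set G) => ψ c) :=
    isCharacter_comp (Subgroup.centralizer (Q : Set G)).subtype hψc
  have hover := fun l => over_of_mul h hψC l
  have hmul' : ∀ l : Q →* ℂˣ, classInner (fun x : Q =>
      (fun c : Subgroup.centralizer (Q : Set G) => ψ c) ⟨x, h.le x.2⟩)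
        (fun x : Q => (l x : ℂ)) = m' l := fun l => hm' l
  obtain ⟨η, hη, hηo, k, hk, hηk⟩ := (hover (r j0).1).1 (by
    rw [hmul']
    exact_mod_cast hm0.ne')
  have hmiss1 := (hover (r j1).1).2 (by rw [hmul', hm1]; simp)
  have hmiss2 := (hover (r j2).1).2 (by rw [hmul', hm2]; simp)
  -- the family
  let θ : J → (Subgroup.centralizer (Q : Set G) → ℂ) :=
    fun j c => η c * E ((r j0).1⁻¹ * (r j).1) c
  have hθirr : ∀ j, IsIrrCharacter _ (θ j) := fun j => isIrr_mul_hom hη _
  have hθover : ∀ j, Over h (θ j) (r j).1 := by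
    intro j
    have h1 := Over.mul h hηo (E ((r j0).1⁻¹ * (r j).1)) (fun x => hE1 _ x)
    have h2 : (r j0).1 * ((r j0).1⁻¹ * (r j).1) = (r j).1 := by
      ext x
      simp
    rwa [h2] at h1
  have hθ0 : θ j0 = η := by
    funext c
    show η c * E ((r j0).1⁻¹ * (r j0).1) c = η c
    have h2 : (r j0).1⁻¹ * (r j0).1 = 1 := by
      ext x
      simp
    rw [h2, map_one]
    simp
  have hθs : ∀ j k, PSing p (θ j - θ k) := by
    intro j k c hc
    show η c * E ((r j0).1⁻¹ * (r j).1) c - η c * E ((r j0).1⁻¹ * (r k).1) c = 0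
    rw [hE2 _ c hc, hE2 _ c hc, sub_self]
  have hg : ∀ j k, Gam Q (θ j) (θ k) = if j = k then 1 else 0 := by
    intro j k
    split_ifs with hjk
    · subst hjk
      rw [Gam_same h (hθirr j) (hθirr j) (hθover j) (hθover j) (r j).2, if_pos rfl]
    · exact Gam_eq_zero h (hθirr j) (hθirr k) (hθover j) (hθover k) (hnc j k hjk)
  -- the linear character `ε` over `r j1`
  let ε : Subgroup.centralizer (Q : Set G) → ℂ := fun c => (E (r j1).1 c : ℂ)
  have hεirr : IsIrrCharacter _ ε := Characters.Linear.isIrrCharacter_hom _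
  have hεover : Over h ε (r j1).1 := Over.of_hom h _ (fun x => hE1 _ x)
  have hεs : PSing p (1 - ε) := by
    intro c hc
    show (1 : ℂ) - (E (r j1).1 c : ℂ) = 0
    rw [hE2 _ c hc]
    simp
  have hone : Over h (1 : Subgroup.centralizer (Q : Set G) → ℂ) 1 := by
    intro x c
    simp
  have hoirr : IsIrrCharacter (Subgroup.centralizer (Q : Set G)) 1 := isIrr_one
  have g1 : ∀ k, Gam Q 1 (θ k) = 0 := fun k =>
    Gam_eq_zero h hoirr (hθirr k) hone (hθover k) (fun t => comp_ne_one (r k).2 t)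
  have g2 : ∀ k, k ≠ j1 → Gam Q ε (θ k) = 0 := fun k hk =>
    Gam_eq_zero h hεirr (hθirr k) hεover (hθover k) (hnc j1 k (Ne.symm hk))
  have g3 : Gam Q 1 ε = 0 :=
    Gam_eq_zero h hoirr hεirr hone hεover (fun t => comp_ne_one (r j1).2 t)
  have g4 : Gam Q ε 1 = 0 :=
    Gam_eq_zero h hεirr hoirr hεover hone (fun t ht => (r j1).2 (by
      rw [← ht]; rfl))
  have g5 : Gam Q ε ε = 1 := by
    rw [Gam_same h hεirr hεirr hεover hεover (r j1).2, if_pos rfl]
  have g6 : Gam Q (1 : Subgroup.centralizer (Q : Set G) → ℂ) 1 = idx Q := by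
    rw [Gam_one, ← idx_mul]
    have : (Nat.card (Subgroup.centralizer (Q : Set G)) : ℂ) ≠ 0 := by
      exact_mod_cast Nat.card_pos.ne'
    push_cast
    field_simp
  have hcardJ : idx Q + 1 ≤ Fintype.card J := by
    have h1 := card_quot h
    have h2 := card_lin h
    rw [Nat.card_eq_fintype_card] at h1
    have h3 : idx Q * idx Q < Fintype.card J * idx Q := by
      rw [h1]
      have h4 : idx Q * idx Q ≤ x ^ 2 := by rw [sq]; exact Nat.mul_le_mul hidx hidx
      omega
    exact Nat.lt_of_mul_lt_mul_right h3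
  have hψcl := isCharacter_isClassFunction hψc
  have frob : ∀ φ : Subgroup.centralizer (Q : Set G) → ℂ,
      classInner (indFun (Subgroup.centralizer (Q : Set G)) φ) ψ =
        classInner φ (fun c : Subgroup.centralizer (Q : Set G) => ψ c) := fun φ =>
    CharactersDeep.IndFun.classInner_indFun _ _ _ hψcl
  have frob1 : ∀ φ : Subgroup.centralizer (Q : Set G) → ℂ,
      classInner (indFun (Subgroup.centralizer (Q : Set G)) φ) 1 = classInner φ 1 := fun φ =>
    CharactersDeep.IndFun.classInner_indFun _ _ _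
      (isCharacter_isClassFunction isCharacter_one)
  have hne1 : ∀ j, classInner (θ j) 1 = 0 := by
    intro j
    apply classInner_irr_ne (hθirr j) hoirr
    intro h1
    apply (r j).2
    have h2 := hθover j
    rw [h1] at h2
    exact Over.unique h one_ne_zero h2 hone
  have hconj0 : ∀ φ : Subgroup.centralizer (Q : Set G) → ℂ,
      classInner (fun c : Subgroup.centralizer (Q : Set G) => ψ c) φ = 0 →
      classInner φ (fun c : Subgroup.centralizer (Q : Set G) => ψ c) = 0 := by
    intro φ hφ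
    rw [← classInner_conj_symm, hφ, map_zero]
  refine Comb.no_config j1 j2 j0 h12 h10 h02
    (fun j => indFun (Subgroup.centralizer (Q : Set G)) (θ j - θ j1)) ?_ ?_ ?_ ?_ ?_ hψ k hk ?_ ?_
    (α := indFun (Subgroup.centralizer (Q : Set G)) (1 - ε)) ?_ ?_ (Gam Q ε (θ j1)) ?_ a ha ?_
    (idx Q + 1) ?_ hcardJ
  · intro j _
    exact gen_ind _ (OddOrderCharacters.VChar.gen_sub
      (OddOrderCharacters.VChar.gen_of_irr (hθirr j))
      (OddOrderCharacters.VChar.gen_of_irr (hθirr j1)))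
  · intro j _
    apply indFun_one
    apply hθs j j1
    rw [orderOf_one]
    exact hp.1.one_lt.ne' ∘ Nat.dvd_one.1
  · intro j hj
    show classInner (indFun _ (θ j - θ j1)) (indFun _ (θ j - θ j1)) = 2
    rw [inner_ind h (hθs j j1), Gam_sub_left, Gam_sub_right, Gam_sub_right, hg, hg, hg, hg,
      if_pos rfl, if_neg hj, if_neg (Ne.symm hj), if_pos rfl]
    norm_num
  · intro j k hj hk hjk
    show classInner (indFun _ (θ j - θ j1)) (indFun _ (θ k - θ j1)) = 1
    rw [inner_ind h (hθs k j1), Gam_sub_left, Gam_sub_right, Gam_sub_right, hg, hg, hg, hg,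
      if_pos rfl, if_neg hj, if_neg (Ne.symm hk), if_neg hjk]
    norm_num
  · intro j _
    show classInner (indFun _ (θ j - θ j1)) 1 = 0
    rw [frob1, classInner_sub_left, hne1, hne1, sub_zero]
  · show classInner (indFun _ (θ j0 - θ j1)) ψ = k
    rw [frob, classInner_sub_left, hθ0, hconj0 _ (hmiss1 _ (hθirr j1) (hθover j1)),
      ← classInner_conj_symm, hηk]
    simp
  · show classInner (indFun _ (θ j2 - θ j1)) ψ = 0
    rw [frob, classInner_sub_left, hconj0 _ (hmiss1 _ (hθirr j1) (hθover j1)),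
      hconj0 _ (hmiss2 _ (hθirr j2) (hθover j2)), sub_zero]
  · apply indFun_one
    apply hεs
    rw [orderOf_one]
    exact hp.1.one_lt.ne' ∘ Nat.dvd_one.1
  · rw [frob1, classInner_sub_left, classInner_irr_self hoirr]
    have h1 : classInner ε (1 : Subgroup.centralizer (Q : Set G) → ℂ) = 0 := by
      apply classInner_irr_ne hεirr hoirr
      intro h1
      apply (r j1).2
      have h2 := hεover
      rw [h1] at h2
      exact Over.unique h one_ne_zero h2 hone
    rw [h1, sub_zero]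
  · intro j hj
    show classInner (indFun _ (1 - ε)) (indFun _ (θ j - θ j1)) = _
    rw [inner_ind h (hθs j j1), Gam_sub_left, Gam_sub_right, Gam_sub_right, g1, g1, g2 j hj]
    ring
  · rw [frob, classInner_sub_left, hψ1, hconj0 _ (hmiss1 _ hεirr hεover), sub_zero]
  · rw [inner_ind h hεs, Gam_sub_left, Gam_sub_right, Gam_sub_right, g3, g4, g5, g6]
    push_cast
    ring

end Cfsg.Agent.H603.Main
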